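import Cfsg.Agent.Lib.UQ.A1

/-! # The configuration `B = A A'` without local characteristic two (copy of `GC.AB2`) -/

set_option autoImplicit false

namespace Cfsg.Lib.UQ

open Subgroup Cfsg.Lib.BG Cfsg.Lib.Transfer Cfsg.Lib.Loc Cfsg.Lib.PLocal Cfsg.Lib.CGT Cfsg.Lib.PU
open Cfsg.Lib.CS Cfsg.Lib.Root Cfsg.Lib.GC
open scoped commutatorElement MatrixGroups Matrix

variable {G : Type*} [Group G] {F : Type} [Field F] {A A' D L T U X Y : Subgroup G}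
  {a b c d g l n u x y : G}

local notation "𝐔" => upperUnipotentSL2 F
local notation "𝔅" => A ⊔ A'
local notation "ℭ" => A ⊓ A'
local notation "𝔑" => 𝐍(A) ⊓ 𝐍(A')

namespace AU

variable {s : Sec SL(2, F) (Fin 2 → F) L A D} (h : AU s A')
include h

theorem conj' {A₁ A₁' : Subgroup G} (e : g ⋆ A = A₁) (e' : g ⋆ A' = A₁') :
    ∃ t : Sec SL(2, F) (Fin 2 → F) (g ⋆ L) A₁ (g ⋆ D), AU t A₁' := by
  subst e e'
  have hf := (MulAut.conj g).injective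
  obtain ⟨t, e1, e2⟩ := s.exists_map (f := (MulAut.conj g).toMonoidHom) hf
  have im : ∀ X : Subgroup G, t.im (g ⋆ X) = s.im X := fun X => Subgroup.ext fun γ => by
    rw [Sec.mem_im, Sec.mem_im]
    exact ⟨fun ⟨_, ⟨x, hx, rfl⟩, h1, h2⟩ => ⟨x, hx, (mem_map_iff_mem hf).1 h1, (e1 x).symm.trans h2⟩,
      fun ⟨x, hx, h1, h2⟩ => ⟨_, mem_map_of_mem _ hx, mem_map_of_mem _ h1, (e1 x).trans h2⟩⟩
  refine ⟨t, (elab_conj g).2 h.eA, (elab_conj g).2 h.eA', le_antisymm (fun x hx => ?_)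
    ((t.im_eq_bot (conj_mono g h.A_le)).1 ((im A).trans ((s.im_eq_bot h.A_le).2 h.ker.ge))),
    (im L).trans h.top, conj_mono g h.le, (im A').trans h.up, ?_, conj_centralizer g L ▸ conj_mono g h.cD,
    conj_centralizer g A ▸ conj_mono g h.cent, conj_normalizer g A ▸ conj_normalizer g L ▸ conj_mono g h.norm,
    h.dich.imp conj_eq_bot_iff.2 (card_conj g D).trans, fun e => conj_commutator g A A' ▸ conj_mono g (h.der e),
    fun n hn e => ?_⟩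
  · obtain ⟨⟨y, hy, rfl⟩, e⟩ := Sec.mem_K.1 hx
    exact mem_map_of_mem _ (h.mem_A hy ((e1 y).symm.trans e))
  · rintro _ ⟨x, hx, rfl⟩ e
    exact mem_map_of_mem _ (h.line x hx (e2 x ▸ e))
  · rw [← conj_sup, ← conj_normalizer, mem_conj] at hn
    have := h.sw _ hn (by rw [← conj_conj, ← conj_conj, e, inv_conj_conj])
    rw [← conj_eq_bot_iff (g := g), conj_inf, conj_conj, ← mul_assoc, ← mul_assoc, mul_inv_cancel, one_mul,
      ← conj_conj] at this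
    exact this

theorem psi_add (hx : x ∈ A) (hy : y ∈ A) (i : Fin 2) : s.ψ (x * y) i = s.ψ x i + s.ψ y i :=
  congrFun (s.add x hx y hy) i

theorem exists_A (t : F) : ∃ x ∈ A, s.ψ x 1 = t :=
  let ⟨x, hx, e⟩ := s.surj ![0, t]; ⟨x, hx, by rw [e]; rfl⟩

theorem exists_A'' (t : F) : ∃ y ∈ A', s.ρ y 0 1 = t :=
  let ⟨y, hy, e⟩ := h.exists_A' t; ⟨y, hy, by rw [e]; rfl⟩

theorem exists_alpha (h1 : g ∈ 𝐍(ℭ)) (h2 : g ∈ 𝐍(D)) : ∃ α : F → F, (∀ a b, α (a + b) = α a + α b) ∧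
    (∀ a, α a = 0 → a = 0) ∧ ∀ c ∈ ℭ, s.ψ (g * c * g⁻¹) 0 = α (s.ψ c 0) := by
  choose f f1 f2 using h.exists_C
  have k : ∀ c ∈ ℭ, s.ψ (g * c * g⁻¹) 0 = s.ψ (g * f (s.ψ c 0) * g⁻¹) 0 := fun c hc => by
    have e : (f (s.ψ c 0))⁻¹ * c ∈ D := (h.mem_D (mul_mem (inv_mem (f1 _)) hc)).2 (by
      rw [h.psi_add (A.inv_mem (f1 _).1) hc.1, s.psi_inv (f1 _).1, Pi.neg_apply, f2, neg_add_cancel])
    rw [← mul_inv_cancel_left (f (s.ψ c 0)) c, conj_mul', h.psi_add (conj_mem_of_norm h1 (f1 _)).1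
      (s.le (conj_mem_of_norm h2 e)), s.psi_eq_zero (conj_mem_of_norm h2 e), mul_inv_cancel_left]
    exact add_zero _
  refine ⟨fun t => s.ψ (g * f t * g⁻¹) 0, fun a b => ?_, fun a e => ?_, k⟩
  · have := k _ (mul_mem (f1 a) (f1 b))
    rw [h.psi_add (f1 a).1 (f1 b).1, f2, f2, conj_mul', h.psi_add (conj_mem_of_norm h1 (f1 _)).1
      (conj_mem_of_norm h1 (f1 _)).1] at this
    exact this.symm
  · rw [← f2 a, ← h.mem_D (f1 a), mem_normalizer_iff.1 h2, h.mem_D (conj_mem_of_norm h1 (f1 a))]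
    exact e

variable [Finite G] [Finite F]

omit [Finite G] in
theorem exists_sig (hg : g ∈ 𝔑) : ∃ (σ : RingAut F) (k l m : F), k ≠ 0 ∧
    (∀ c ∈ ℭ, s.ψ (g * c * g⁻¹) 0 = k * σ (s.ψ c 0)) ∧ (∀ x ∈ A, s.ψ (g * x * g⁻¹) 1 = m * σ (s.ψ x 1)) ∧
      ∀ y ∈ 𝔅, s.ρ (g * y * g⁻¹) 0 1 = l * σ (s.ρ y 0 1) := by
  obtain ⟨α, h1, h2, h3⟩ := h.exists_alpha (N_le_C hg) (h.norm_D hg.1)
  have k : ∀ y ∈ 𝔅, ∀ x ∈ A, α (s.ρ y 0 1 * s.ψ x 1) = s.ρ (g * y * g⁻¹) 0 1 * s.ψ (g * x * g⁻¹) 1 :=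
    fun y hy x hx => by
      have := h3 _ (h.cm_mem hy hx)
      rw [conj_cm, h.psi_cm hy hx, h.psi_cm (conj_mem_of_norm (N_le hg) hy) (conj_mem_of_norm hg.1 hx)] at this
      exact this.symm
  choose f f1 f2 using h.exists_A
  choose e e1 e2 using h.exists_A''
  obtain ⟨σ, h4, h5⟩ := exists_aut h1 h2 (τ := fun t => s.ρ (g * e t * g⁻¹) 0 1)
    (γ := fun t => s.ψ (g * f t * g⁻¹) 1) fun t c => by rw [← k _ (mem_sup_right (e1 t)) _ (f1 c), e2, f2]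
  have h6 := k _ (mem_sup_right (e1 1)) _ (f1 1)
  rw [e2, f2, mul_one] at h6
  refine ⟨σ, α 1, s.ρ (g * e 1 * g⁻¹) 0 1, s.ψ (g * f 1 * g⁻¹) 1, h4, fun c hc => (h3 c hc).trans (h5 _),
    fun x hx => mul_left_cancel₀ (left_ne_zero_of_mul (h6 ▸ h4)) ?_,
    fun y hy => mul_right_cancel₀ (right_ne_zero_of_mul (h6 ▸ h4)) ?_⟩
  · rw [← k _ (mem_sup_right (e1 1)) _ hx, e2, one_mul, h5, h6, mul_assoc]
  · rw [← k _ hy _ (f1 1), f2, mul_one, h5, h6, mul_right_comm]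

omit [Finite G] in
theorem exists_theta : ∃ θ : ↥𝔑 →* RingAut F, ∀ g : ↥𝔑, ∃ k ≠ 0,
    ∀ c ∈ ℭ, s.ψ (g * c * (g : G)⁻¹) 0 = k * θ g (s.ψ c 0) := by
  choose σ k _ _ h1 h2 _ using fun g : ↥𝔑 => h.exists_sig g.2
  refine ⟨MonoidHom.mk' σ fun a b => ?_, fun g => ⟨k g, h1 g, h2 g⟩⟩
  have e : ∀ t, k (a * b) * σ (a * b) t = k a * σ a (k b) * (σ a * σ b) t := fun t => by
    obtain ⟨c, hc, rfl⟩ := h.exists_C t
    rw [← h2 _ c hc, RingAut.mul_apply, mul_assoc (k a), ← map_mul, ← h2 b c hc,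
      ← h2 a _ (conj_mem_of_norm (N_le_C b.2) hc), coe_mul]
    congr 2; group
  have e1 := e 1
  rw [map_one, map_one, mul_one, mul_one] at e1
  exact RingEquiv.ext fun t => mul_left_cancel₀ (h1 _) ((e t).trans (by rw [e1]))

variable [CharP F 2]

omit [Finite G] [Finite F] [CharP F 2] in
theorem pow_fld (hu : Fld A A' u) : u ^ 2 ^ 3 = 1 := by
  rw [← el_sq h.eC (h.sq_mem hu.sq)]; simp only [pow_succ, pow_zero, one_mul, mul_assoc, Nat.reduceMul]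

theorem fr_C {σ : RingAut F} {k : F} (hu : Fld A A' u) (e : ∀ c ∈ ℭ, s.ψ (u * c * u⁻¹) 0 = k * σ (s.ψ c 0)) :
    σ ≠ 1 ∧ Fr u ℭ D := by
  have := fr_of_coord (X := ℭ) (φ := fun c => s.ψ c 0) (fun x hx y hy => h.psi_add hx.1 hy.1 0) h.exists_C
    (fun _ => h.mem_D) (N_le_C hu.mem) e fun c hc => comm_eq_one.2 (h.C_comm hc hu.sq) ▸ one_mem D
  have h0 : σ ≠ 1 := fun e => hu.nmem (h.mem_B_of_fix hu.mem (h.pow_fld hu) (this.2 e))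
  exact ⟨h0, this.1 h0⟩

theorem fr (hu : Fld A A' u) : 2 < Nat.card F ∧ Fr u A ℭ ∧ Fr u A' ℭ ∧ Fr u ℭ D := by
  obtain ⟨σ, k, l, m, -, h1, h2, h3⟩ := h.exists_sig hu.mem
  obtain ⟨h0, h4⟩ := h.fr_C hu h1
  exact ⟨two_lt_of_ne h0, (fr_of_coord (φ := fun x => s.ψ x 1) (fun x hx y hy => h.psi_add hx hy 1)
    h.exists_A (fun x hx => (and_iff_right hx).trans (h.mem_C hx)) hu.mem.1 h2
      fun x hx => h.cm_mem hu.sq hx).1 h0, (fr_of_coord (φ := fun y => s.ρ y 0 1)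
    (fun x hx y hy => h.tau_mul (mem_sup_right hx) (mem_sup_right hy)) h.exists_A''
    (fun x hx => (and_iff_left hx).trans (h.mem_A_iff (mem_sup_right hx))) hu.mem.2
      (fun y hy => h3 y (mem_sup_right hy)) fun x hx => h.cm_mem' hu.sq hx).1 h0, h4⟩

omit h [Finite G] [Finite F] [CharP F 2] in
theorem exists_fld (hg : g ∈ 𝔑) (h0 : g ∉ 𝔅) {k : ℕ} (h1 : g ^ 2 ^ k = 1) : ∃ j, Fld A A' (g ^ 2 ^ j) :=
  let ⟨j, e⟩ := exists_pow_step h0 (h1 ▸ one_mem _); ⟨j, pow_mem hg _, e.1, e.2⟩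

theorem exists_theta' : ∃ θ : ↥𝔑 →* RingAut F, ∀ g : ↥𝔑, (∃ k, (g : G) ^ 2 ^ k = 1) →
    (θ g = 1 ↔ (g : G) ∈ 𝔅) := by
  obtain ⟨θ, h1⟩ := h.exists_theta
  refine ⟨θ, fun g ⟨k, hk⟩ => ⟨fun e => by_contra fun e' => ?_, fun e => ?_⟩⟩
  · obtain ⟨j, hj⟩ := exists_fld g.2 e' hk
    obtain ⟨k, -, h2⟩ := h1 (g ^ 2 ^ j)
    exact (h.fr_C hj h2).1 (by rw [map_pow, e, one_pow])
  · obtain ⟨k, h0, h2⟩ := h1 g
    have h3 : ∀ t, t = k * θ g t := fun t => by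
      obtain ⟨c, hc, rfl⟩ := h.exists_C t
      rw [← h2 c hc, h.C_comm hc e, mul_inv_cancel_right]
    have := h3 1
    rw [map_one, mul_one] at this
    exact RingEquiv.ext fun t => ((h3 t).trans (by rw [← this, one_mul])).symm

theorem i2_of_sq (hX : IsPGroup 2 X) (h1 : X ≤ 𝔑) (h2 : ∀ x ∈ X, x * x ∈ 𝔅) : I2 𝔅 X := by
  obtain ⟨θ, h3⟩ := h.exists_theta'
  have k : ∀ x (hx : x ∈ X), θ ⟨x, h1 hx⟩ = 1 ↔ x ∈ 𝔅 := fun x hx =>
    h3 _ ((hX ⟨x, hx⟩).imp fun _ e => congrArg Subtype.val e)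
  intro x hx y hy a b
  refine (k _ (mul_mem (inv_mem hx) hy)).1 ((map_mul θ ⟨x, h1 hx⟩⁻¹ ⟨y, h1 hy⟩).trans ?_)
  rw [map_inv, inv_mul_eq_one]
  exact eq_of_sq_one ((map_mul θ _ _).symm.trans ((k _ (mul_mem hx hx)).2 (h2 x hx)))
    ((map_mul θ _ _).symm.trans ((k _ (mul_mem hy hy)).2 (h2 y hy))) (mt (k x hx).1 a) (mt (k y hy).1 b)

theorem i2_el (hU : IsElementaryAbelian 2 U) (h1 : U ≤ 𝔑) : I2 𝔅 U :=
  h.i2_of_sq (elab_pgroup hU) h1 fun _ hx => el_sq hU hx ▸ one_mem _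

theorem sq_mem_small (hq : Nat.card F ≤ 4) (hX : IsPGroup 2 X) (h1 : X ≤ 𝔑) (hx : x ∈ X) : x * x ∈ 𝔅 := by
  obtain ⟨θ, h3⟩ := h.exists_theta'
  refine (h3 ⟨x * x, h1 (mul_mem hx hx)⟩ ((hX ⟨_, mul_mem hx hx⟩).imp fun _ e => congrArg Subtype.val e)).1
    ((map_mul θ ⟨x, h1 hx⟩ ⟨x, h1 hx⟩).trans ?_)
  cases nonempty_fintype F
  obtain ⟨n, -, e⟩ := FiniteField.card F 2
  have h4 : (n : ℕ) ≤ 2 := (Nat.pow_le_pow_iff_right one_lt_two).1 (by rwa [← e, ← Nat.card_eq_fintype_card])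
  rw [← pow_two, ← orderOf_dvd_iff_pow_eq_one]
  refine (_root_.orderOf_dvd_natCard _).trans (Linear.card_ringAut e ▸ ?_)
  have := n.pos
  interval_cases (n : ℕ) <;> simp

theorem le_B_of_two (hq : ¬ 2 < Nat.card F) (hX : IsPGroup 2 X) (h1 : X ≤ 𝔑) : X ≤ 𝔅 := fun x hx =>
  by_contra fun e => hq (h.fr ⟨h1 hx, e, h.sq_mem_small (by omega) hX h1 hx⟩).1

theorem cyc (hT : IsPGroup 2 T) (h1 : T ≤ 𝔑) [((𝔅).subgroupOf T).Normal] :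
    IsCyclic (T ⧸ (𝔅).subgroupOf T) := by
  obtain ⟨θ, h3⟩ := h.exists_theta'
  have e : (𝔅).subgroupOf T = (θ.comp (inclusion h1)).ker := Subgroup.ext fun x =>
    (h3 (inclusion h1 x) ((hT x).imp fun _ e => congrArg Subtype.val e)).symm
  exact isCyclic_of_injective _ (QuotientGroup.injective_lift_iff _ _ (fun _ hx => e.le hx) |>.2 e)

end AU

end Cfsg.Lib.UQ
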