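import Cfsg.Agent.Lib.GC.Lk
import Cfsg.Agent.Lib.UQ.A4
import Cfsg.Agent.Lib.QS.Def
import Cfsg.Agent.Lib.Comp.PumpTwo
import Cfsg.Agent.Lib.Loc.ParChar
import Cfsg.Agent.Lib.Inv.MaxClass

/-! # UQ tower (S1819): definitions.  See `docs/UQ.md`. -/

set_option autoImplicit false

namespace Cfsg.Lib.UQ

open Subgroup Cfsg.Lib.BG Cfsg.Lib.Transfer Cfsg.Lib.Loc Cfsg.Lib.PLocal Cfsg.Lib.PU Cfsg.Lib.CS Cfsg.Lib.Comp
open scoped commutatorElement MatrixGroups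

section G

variable {G : Type*} [Group G]

/-- involution -/
def Iv (v : G) : Prop := v * v = 1 ∧ v ≠ 1

/-- good involution -/
def Gd (M : Subgroup G) (v : G) : Prop := Iv v ∧ 𝐂[v] ≤ M

/-- involution with a centralizer of characteristic two (the set `𝒞`) -/
def Cc (v : G) : Prop := Iv v ∧ IsChP 2 𝐂[v]

/-- four-group -/
def F4 (W : Subgroup G) : Prop := IsElementaryAbelian 2 W ∧ Nat.card W = 4

/-- nontrivial 2-group -/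
def Tg (X : Subgroup G) : Prop := IsPGroup 2 X ∧ X ≠ ⊥

/-- quasithin -/
def QTh (G : Type*) [Group G] : Prop := ∀ X : Subgroup G, Tg X → QT.SQ 𝐍(X)

/-- isomorphic to a Sylow 2-subgroup of `S₈` -/
def Wr (P : Subgroup G) : Prop :=
  ∀ Q : Sylow 2 (Equiv.Perm (Fin 8)), Nonempty (P ≃* (Q : Subgroup (Equiv.Perm (Fin 8))))

/-- `M` is the only maximal 2-local subgroup over the Sylow 2-subgroup `T` -/
structure UM (T M : Subgroup G) : Prop where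
  syl : SylIn 2 T ⊤
  le : T ≤ M
  chp : IsChP 2 M
  uq : ∀ X, Tg X → T ≤ 𝐍(X) → 𝐍(X) ≤ M

/-- the family `𝒫` -/
structure PP (N M S : Subgroup G) : Prop where
  pg : IsPGroup 2 S
  le : S ≤ M
  syl : N = ⊤ ∨ SylIn 2 (S ⊓ N) N
  exU : ∃ U ≤ S, (∃ v ∈ U, Gd M v) ∧ ¬ 𝐍(U) ≤ M
  exX : ∃ X, Tg X ∧ S ≤ 𝐍(X) ∧ ¬ 𝐍(X) ≤ M

/-- members of `𝒫` of maximal order -/
structure Mx (N M S : Subgroup G) : Prop extends PP N M S where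
  max : ∀ S', PP N M S' → Nat.card S' ≤ Nat.card S

/-- the standing hypothesis; `N = O²(G)` -/
structure Hy (N T M S : Subgroup G) : Prop where
  um : UM T M
  mx : Mx N M S
  leT : S ≤ T
  res : pResidualOf 2 ⊤ = N
  qt : QTh G

/-- `y ∈ N_T(S) ∖ S` with `y² ∈ S` -/
structure Yy (T S : Subgroup G) (y : G) : Prop where
  mem : y ∈ T
  norm : y ∈ 𝐍(S)
  nmem : y ∉ S
  sq : y * y ∈ S

/-! ### case 1 -/

/-- the extra hypotheses of case 1 -/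
structure H1 (N T M S : Subgroup G) : Prop extends Hy N T M S where
  ec : ∀ w, Iv w → T ⊓ N ≤ 𝐂[w] → IsChP 2 𝐂[w]
  nw : N = ⊤ ∨ ¬ Wr (T ⊓ N)

/-- `E` is a block that is not contained in `M` and lies in a 2-local subgroup of characteristic two over `S` -/
def Bl (M S E : Subgroup G) : Prop := Blk 2 (baum 2 S) E ∧ ¬ E ≤ M ∧
  ∃ X, Tg X ∧ S ≤ 𝐍(X) ∧ E ≤ 𝐍(X) ∧ IsChP 2 𝐍(X)

/-- a block of maximal order -/
structure BK (N T M S E : Subgroup G) (y : G) : Prop extends H1 N T M S, Yy T S y where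
  bl : Bl M S E
  maxE : ∀ E', Bl M S E' → Nat.card E' ≤ Nat.card E

/-- first outcome: a four-group that is self-centralizing in `N` -/
def Four (N T M : Subgroup G) : Prop := ∃ W ≤ T ⊓ N, F4 W ∧ N ⊓ 𝐂(W) ≤ W ∧
  ∃ x ∈ N ⊓ 𝐍(W), x ^ 3 = 1 ∧ x ∉ 𝐂(W) ∧ x ∉ M

/-- the configuration `B = A A'` with a swap -/
structure AC {F : Type} [Field F] (N T M S : Subgroup G) {L A D : Subgroup G}
    (s : Sec SL(2, F) (Fin 2 → F) L A D) (A' : Subgroup G) (y : G) : Prop extends H1 N T M S, AU s A' where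
  leS : A ⊔ A' ≤ S
  nS : S ≤ 𝐍(A)
  nL : ¬ L ≤ M
  yT : y ∈ T
  sw1 : y ⋆ A = A'
  sw2 : y ⋆ A' = A

/-- second outcome: `B = A A'` is a Sylow 2-subgroup of `N` -/
def TL (N T M : Subgroup G) : Prop := ∃ (F : Type) (_ : Field F) (_ : Finite F) (_ : CharP F 2)
  (L A D A' : Subgroup G) (s : Sec SL(2, F) (Fin 2 → F) L A D), AU s A' ∧ 2 < Nat.card F ∧ A ⊔ A' = T ⊓ N ∧
    ¬ L ≤ M ∧ ∃ y ∈ T, y ∉ 𝐍(A)

/-- `x` has order three, acts on the four-group `⟨a, z⟩`, centralizes `z'` and `D`, and moves `c`, `d` inside their cosets -/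
structure X3 (D : Subgroup G) (x a z z' c d : G) : Prop where
  ord : x ^ 3 = 1
  cz : x * z * x⁻¹ = a
  ca : x * a * x⁻¹ = a * z
  cz' : x * z' * x⁻¹ = z'
  cD : x ∈ 𝐂(D)
  cc : x * c * x⁻¹ * c⁻¹ ∈ closure {a, z}
  cd : x * d * x⁻¹ * d⁻¹ ∈ closure {a, z}

/-- `B = ⟨a₁, b₁⟩ × ⟨a₂, b₂⟩ × D` with dihedral factors of order eight, `S = B⟨s⟩` -/
structure DD (N T M S D : Subgroup G) (a₁ a₂ b₁ b₂ z₁ z₂ s y x₁ x₂ : G) : Prop extends H1 N T M S, Yy T S y where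
  sa₁ : a₁ * a₁ = 1
  sa₂ : a₂ * a₂ = 1
  eb₁ : y * a₁ * y⁻¹ = b₁
  eb₂ : y * a₂ * y⁻¹ = b₂
  ez₁ : ⁅a₁, b₁⁆ = z₁
  ez₂ : ⁅a₂, b₂⁆ = z₂
  iz₁ : Iv z₁
  iz₂ : Iv z₂
  ne : z₁ ≠ z₂
  c₁ : Commute a₁ a₂
  c₂ : Commute a₁ b₂
  c₃ : Commute a₂ b₁
  eD : IsElementaryAbelian 2 D
  cD : D ≤ 𝐂(closure {a₁, a₂, b₁, b₂})
  iD : D ⊓ closure {z₁, z₂} = ⊥
  yD : D ⊓ y ⋆ D = ⊥
  yZ : y ∈ 𝐍(closure {z₁, z₂} ⊔ D)
  yb₁ : y * b₁ * y⁻¹ * a₁ ∈ closure {z₁, z₂} ⊔ D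
  yb₂ : y * b₂ * y⁻¹ * a₂ ∈ closure {z₁, z₂} ⊔ D
  yy : y * y ∈ closure {a₁, a₂, b₁, b₂} ⊔ D
  eS : S = closure {a₁, a₂, b₁, b₂} ⊔ D ⊔ zpowers s
  ss : s * s ∈ closure {a₁, a₂, b₁, b₂} ⊔ D
  sD : s ∈ 𝐍(D)
  s₁ : s * a₁ * s⁻¹ * a₂ ∈ closure {z₁, z₂} ⊔ D
  s₂ : s * a₂ * s⁻¹ * a₁ ∈ closure {z₁, z₂} ⊔ D
  s₃ : s * b₁ * s⁻¹ * b₂ ∈ closure {z₁, z₂} ⊔ D
  s₄ : s * b₂ * s⁻¹ * b₁ ∈ closure {z₁, z₂} ⊔ D
  h₁ : X3 D x₁ a₁ z₁ z₂ a₂ b₂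
  h₂ : X3 D x₂ a₂ z₂ z₁ a₁ b₁
  inv₁ : b₁ * x₁ * b₁⁻¹ = x₁⁻¹
  inv₂ : b₂ * x₂ * b₂⁻¹ = x₂⁻¹

/-! ### case 2 -/

/-- `K` is a component of the centralizer of the involution `r ∈ Z(S)` -/
structure Tp (S K : Subgroup G) (r : G) : Prop where
  iv : Iv r
  rS : r ∈ S
  cen : r ∈ 𝐂(S)
  cmp : Cmp K 𝐂[r]

/-- case 2: no maximal member of `𝒫` lies in a 2-local subgroup of characteristic two outside `M` -/
structure H2 (T M S : Subgroup G) (y : G) : Prop extends Hy ⊤ T M S, Yy T S y where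
  simple : IsSimpleGroup G
  nab : ¬ IsMulCommutative G
  kp : IsKProper G
  g2 : ∀ S', Mx ⊤ M S' → ∀ X, Tg X → S' ≤ 𝐍(X) → IsChP 2 𝐍(X) → 𝐍(X) ≤ M

/-- the chosen component; `R = C_S(⟨K^S⟩)` -/
structure C2 (T M S K R : Subgroup G) (r y : G) : Prop extends H2 T M S y, Tp S K r where
  eR : R = S ⊓ 𝐂(Comp.ncl K S)
  maxK : ∀ S' K' r', Mx ⊤ M S' → Tp S' K' r' → Nat.card K' ≤ Nat.card K

/-- the image of `S ∩ K` in `K / Z(K)` -/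
def Ub (S K : Subgroup G) : Subgroup (K ⧸ center K) :=
  (S.subgroupOf K).map (QuotientGroup.mk' (center K))

/-- the full preimage in `K` of a subgroup of `K / Z(K)` -/
def Pre (K : Subgroup G) (X : Subgroup (K ⧸ center K)) : Subgroup G :=
  (X.comap (QuotientGroup.mk' (center K))).map K.subtype

end G

/-- the outcome `TL` in `K S / R` -/
def TK.{u} {G : Type u} [Group G] (M S K R : Subgroup G) : Prop := ∃ (Γ : Type u) (_ : Group Γ) (_ : Finite Γ) (π : ↥(K ⊔ S) →* Γ),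
  Function.Surjective π ∧ π.ker = R.subgroupOf (K ⊔ S) ∧
    TL ((K.subgroupOf (K ⊔ S)).map π) ((S.subgroupOf (K ⊔ S)).map π) ((M.subgroupOf (K ⊔ S)).map π)

/-! ### facts about the simple group `Y = K / Z(K)` with Sylow 2-subgroup `U` -/

section Y

variable {Y : Type*} [Group Y]

/-- `α` fixes `U` pointwise -/
def Fx (α : MulAut Y) (U : Subgroup Y) : Prop := ∀ x ∈ U, α x = x

/-- automorphisms that fix a Sylow 2-subgroup pointwise -/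
structure KG (U : Subgroup Y) : Prop where
  ec : ∀ α : MulAut Y, α * α = 1 → α ≠ 1 → Fx α U → IsChP 2 (fixedSubgroup α)
  oc : ∀ α : MulAut Y, Odd (orderOf α) → Fx α U → α = 1
  ic : ∀ P : Subgroup (MulAut Y), IsPGroup 2 P → (∀ α ∈ P, Fx α U) → P ⊓ Inn Y = ⊥ → Nat.card P < Nat.card U

/-- dihedral Sylow 2-subgroups (four-groups included) -/
def Dh (U : Subgroup Y) : Prop := ∃ n, 2 ≤ n ∧ Nonempty (U ≃* DihedralGroup n)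

/-- one class of involutions -/
def One (Y : Type*) [Group Y] : Prop := ∀ a b : Y, Iv a → Iv b → IsConj a b

/-- what is used of a Bender group -/
structure BF (U : Subgroup Y) : Prop where
  syl : SylIn 2 U ⊤
  ti : ∀ g, U ⊓ g ⋆ U ≠ ⊥ → g ∈ 𝐍(U)
  tr : ∀ g ∉ 𝐍(U), ∀ h ∉ 𝐍(U), ∃ u ∈ U, u ⋆ g ⋆ U = h ⋆ U
  cen : ∀ v ∈ U, v * v = 1 → v ∈ 𝐂(U)
  four : ∃ v ∈ U, ∃ w ∈ U, Iv v ∧ Iv w ∧ v ≠ w

/-- `L₂(p)`: `U` is dihedral -/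
structure TA (U : Subgroup Y) : Prop where
  dih : ∃ a b m, 1 ≤ m ∧ Inv.MC U a b m 0 0
  da : ∀ (α : MulAut Y) (W : Subgroup Y), F4 W → Fx α W → α ∈ Inn Y
  cit : ∀ v : Y, Iv v → IsPGroup 2 𝐂[v]

/-- `A₆`, `L₃(3)`, `M₁₁` -/
structure TB (U : Subgroup Y) : Prop where
  mc : (∃ a b, Inv.MC U a b 1 0 0) ∨ ((∃ a b, Inv.MC U a b 2 1 0) ∧ ¬ 4 ∣ Nat.card (Out Y))
  nc : QT.NC 3 Y
  out : Nat.card (Out Y) ∣ 4

/-- type D -/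
structure TD (U : Subgroup Y) : Prop where
  syl : SylIn 2 U ⊤
  one : One Y
  four : ∀ W : Subgroup Y, F4 W → 𝐂(W) ≤ W ∧ ∃ x ∈ 𝐍(W), x ^ 3 = 1 ∧ x ∉ 𝐂(W)
  alt : TA U ∨ TB U

end Y

end Cfsg.Lib.UQ
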