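import Cfsg.Agent.Lib.QS.SqB

/-! # UQ tower: odd rank at least three for groups of Lie type in odd characteristic `p` (an elementary abelian unipotent subgroup of order `≥ p³`;
`BP3` of `QS.SqA` does not depend on the characteristic) -/

set_option autoImplicit false
set_option linter.unusedSectionVars false

namespace Cfsg.Lib.UQ

open Cfsg.Lib.QS
open scoped MatrixGroups

theorem b3_add {G A : Type*} [Group G] [AddCommGroup A] {p : ℕ} (hp : p.Prime) (h2 : p ≠ 2) (hA : ∀ a : A, p • a = 0)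
    (c : p ^ 3 ≤ Nat.card A) (g : A → G) (hg : ∀ a b, g (a + b) = g a * g b) (h0 : ∀ a, g a = 1 → a = 0) : B3 G :=
  b3_of_hom (X := Multiplicative A) hp h2 mul_comm hA c (MonoidHom.mk' (fun a => g a.toAdd) fun _ _ => hg _ _) h0

theorem b3_mat {G A F ι : Type*} [Group G] [AddCommGroup A] [Field F] [Fintype ι] [DecidableEq ι] {p : ℕ} (hp : p.Prime) (h2 : p ≠ 2)
    [CharP F p] (hA : ∀ a : A, p • a = 0) (c : p ^ 3 ≤ Nat.card A) (f : G →* Matrix ι ι F) (hf : Function.Injective f)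
    (M : A → Matrix ι ι F) (M0 : M 0 = 1) (hM : ∀ a b, M (a + b) = M a * M b) (hG : ∀ a, (M a).det = 1 → ∃ g, f g = M a)
    (h0 : ∀ a, ∀ g ∈ Subgroup.center G, f g = M a → a = 0) : B3 (G ⧸ Subgroup.center G) := by
  haveI := Fact.mk hp
  have k (a) (n : ℕ) : M (n • a) = M a ^ n := by
    induction n with
    | zero => rw [zero_nsmul, pow_zero, M0]
    | succ n h => rw [succ_nsmul, pow_succ, hM, h]
  choose g hg using fun a => hG a (frobenius_inj F p (by rw [frobenius_def, ← Matrix.det_pow, ← k, hA, M0, Matrix.det_one, map_one]))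
  exact b3_add hp h2 hA c (fun a => QuotientGroup.mk (g a))
    (fun a b => congrArg QuotientGroup.mk (hf (by rw [map_mul, hg, hg, hg, hM])))
    fun a e => h0 a _ ((QuotientGroup.eq_one_iff _).1 e) (hg a)

open Cfsg.Lib.Chev Cfsg.Lib.Chev.RootSys in
theorem b3_rt {ι Φ : Type} [Fintype ι] [DecidableEq ι] [Fintype Φ] {R : RootSys ι Φ} {F G A : Type*} [Field F] [Group G]
    [AddCommGroup A] {C : ChevSys R F G} (hF : C.Faithful) {K : Subgroup G} {p : ℕ} (hp : p.Prime) (h2 : p ≠ 2)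
    (hA : ∀ a : A, p • a = 0) (c : p ^ 3 ≤ Nat.card A) {r s u : Φ} (nd : [r, s, u].Nodup) (po : ∀ k ∈ [r, s, u], R.IsPos k)
    (c1 : ∀ a b, Commute (C.x r a) (C.x s b)) (c2 : ∀ a b, Commute (C.x r a) (C.x u b)) (c3 : ∀ a b, Commute (C.x s a) (C.x u b))
    (α β γ : A →+ F) (m : ∀ a, C.x r (α a) * (C.x s (β a) * C.x u (γ a)) ∈ K) (h0 : ∀ a, α a = 0 → β a = 0 → γ a = 0 → a = 0) :
    B3 K := by
  refine b3_add hp h2 hA c (fun a => ⟨_, m a⟩) (fun a b => Subtype.ext ?_) fun a e => ?_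
  · simp only [map_add, C.x_add, Subgroup.coe_mul]
    rw [(c3 _ _).mul_mul_mul_comm, ((c1 _ _).mul_right (c2 _ _)).mul_mul_mul_comm]
  · have := Twisted.word_inj hF (f := htL _) nd (fun k hk => (po k hk).ht_pos) (t := [α a, β a, γ a]) (t' := [0, 0, 0]) rfl rfl
      (by simpa [C.x_zero] using congrArg Subtype.val e)
    simp only [List.cons.injEq] at this
    exact h0 a this.1 this.2.1 this.2.2.1

section Orth
open Cfsg.Lib.Orth QuadraticMap Module
variable {F V : Type*} [Field F] [AddCommGroup V] [Module F V] {Q : QuadraticForm F V}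

theorem b3o_omega (h2 : (2 : F) ≠ 0) (e f : Fin 3 → V) (w : V) (qe : ∀ i, Q (e i) = 0) (qf : ∀ i, Q (f i) = 0) (qw : Q w = 1)
    (ef : ∀ i j, polar Q (e i) (f j) = if i = j then 1 else 0) (ee : ∀ i j, polar Q (e i) (e j) = 0)
    (ff : ∀ i j, polar Q (f i) (f j) = 0) (ew : ∀ i, polar Q (e i) w = 0) (fw : ∀ i, polar Q (f i) w = 0) :
    B3 (commutator (O Q)) := by
  have fe : ∀ i j, polar Q (f i) (e j) = if j = i then 1 else 0 := fun i j => by rw [polar_comm, ef]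
  have we : ∀ i, polar Q w (e i) = 0 := fun i => by rw [polar_comm, ew]
  have wf : ∀ i, polar Q w (f i) = 0 := fun i => by rw [polar_comm, fw]
  have ww : polar Q w w = 2 := by rw [polar_self', qw, mul_one]
  have A : ∀ x y, Q (x + y) = Q x + Q y + polar Q x y := fun x y => by simp [polar]
  have h4 : (4 : F) ≠ 0 := by rw [show (4 : F) = 2 * 2 by norm_num]; exact mul_ne_zero h2 h2
  have h : ∀ i, QT.Br (refl Q (![e 0 + f 0, e 0 + (-f 0 + -f 1), w + w] i))
      (refl Q (![-e 0 + (e 1 + f 1), f 1 + -e 1, -w + (e 2 + (f 2 + (f 2 + f 2)))] i)) := by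
    refine Fin.forall_fin_succ.2 ⟨QT.br_refl (w := e 1) one_ne_zero ?_ ?_ ?_ ?_ ?_, Fin.forall_fin_two.2
      ⟨QT.br_refl (c := -1) (w := f 1) (by norm_num) ?_ ?_ ?_ ?_ ?_, QT.br_refl (w := f 2) h4 ?_ ?_ ?_ ?_ ?_⟩⟩ <;>
      simp [A, polar_add_left, polar_add_right, polar_neg_left, polar_neg_right, -polar_self, *] <;> norm_num
  refine b3_br h (fun i j k => ⟨?_, ?_, ?_⟩) fun i => (h i).mem_comm (refl_mul_self _) <;>
    refine refl_comm_of_perp ?_ <;> fin_cases i <;> fin_cases j <;>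
    first | exact absurd rfl k | simp [polar_add_left, polar_add_right, polar_neg_left, polar_neg_right, -polar_self, *]

end Orth

theorem exists_iso {F : Type*} [Field F] {p : ℕ} (hp : p.Prime) [CharP F p] (σ : F →+* F) :
    ∃ a b : F, σ a = a ∧ σ b = b ∧ a ^ 2 + b ^ 2 = -1 := by
  haveI := Fact.mk hp
  obtain ⟨a, b, h⟩ := ZMod.sq_add_sq p (-1)
  obtain ⟨a, rfl⟩ := ZMod.intCast_surjective a
  obtain ⟨b, rfl⟩ := ZMod.intCast_surjective b
  exact ⟨a, b, map_intCast σ a, map_intCast σ b, by simpa using congrArg (ZMod.castHom (dvd_refl p) F) h⟩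

variable {F : Type} [Field F] [Fintype F] (ho : Odd (Fintype.card F))
include ho

theorem ka_char : ∃ p e : ℕ, p.Prime ∧ p ≠ 2 ∧ CharP F p ∧ 1 ≤ e ∧ Fintype.card F = p ^ e ∧ ∀ a : F, p • a = 0 := by
  obtain ⟨p, hc, ⟨e, he⟩, hp, hq⟩ := FiniteField.card' F
  refine ⟨p, e, hp, ?_, hc, he, hq, fun a => by rw [nsmul_eq_mul, CharP.cast_eq_zero, zero_mul]⟩
  rintro rfl
  exact (Nat.not_even_iff_odd.2 ho) (hq ▸ (Nat.even_pow' he.ne').2 even_two)

theorem ka_three : ∃ p : ℕ, p.Prime ∧ p ≠ 2 ∧ CharP F p ∧ (∀ a : F × F × F, p • a = 0) ∧ p ^ 3 ≤ Nat.card (F × F × F) := by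
  obtain ⟨p, e, hp, h2, hc, he, hq, hA⟩ := ka_char ho
  refine ⟨p, hp, h2, hc, fun a => Prod.ext (hA _) (Prod.ext (hA _) (hA _)), ?_⟩
  rw [Nat.card_prod, Nat.card_prod, Nat.card_eq_fintype_card, hq, ← pow_add, ← pow_add]
  exact Nat.pow_le_pow_right hp.pos (by omega)

theorem b3o_PSL {n : ℕ} (h : 4 ≤ n ∨ (n = 3 ∧ ¬ (Fintype.card F).Prime)) : B3 (Matrix.ProjectiveSpecialLinearGroup (Fin n) F) := by
  obtain ⟨p, e, hp, h2, hc, he, hq, hA⟩ := ka_char ho
  obtain ⟨k, rfl⟩ : ∃ k, n = k + 1 := ⟨n - 1, by omega⟩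
  refine b3_mat (A := Fin k → F) hp h2 (fun a => funext fun i => hA _) ?_ (QT.slM _ F) Subtype.val_injective
    (fun a => 1 + Matrix.vecMulVec (Pi.single 0 1) (Fin.cons 0 a)) ?_ (fun a b => ?_) (fun a h => ⟨⟨_, h⟩, rfl⟩) fun a g hg e => ?_
  · rw [Nat.card_fun, Nat.card_eq_fintype_card, Nat.card_fin, hq, ← pow_mul]
    refine Nat.pow_le_pow_right hp.pos (h.elim (fun h => by nlinarith) fun h => ?_)
    have : e ≠ 1 := fun k => h.2 (by rw [hq, k, pow_one]; exact hp)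
    obtain rfl : k = 2 := by omega
    omega
  · ext i j; refine Fin.cases ?_ (fun j => ?_) j <;> simp [Matrix.vecMulVec_apply]
  · rw [add_mul, mul_add, mul_add, one_mul, one_mul, mul_one, Matrix.vecMulVec_mul_vecMulVec, dotProduct_single]
    ext i j; refine Fin.cases ?_ (fun j => ?_) j <;> simp [Matrix.vecMulVec_apply, mul_add] <;> ring
  · obtain ⟨c, hc⟩ := QT.slM_center g hg
    funext i
    simpa [Matrix.vecMulVec_apply, Matrix.one_apply, (Fin.succ_ne_zero i).symm] using congrFun (congrFun (e.symm.trans hc) 0) i.succ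

theorem b3o_PSp {m : ℕ} (h : 2 ≤ m) : B3 (PSp m F) := by
  obtain ⟨p, hp, h2, hc, hA, c⟩ := ka_three ho
  obtain ⟨k, rfl⟩ := Nat.exists_eq_add_of_le' h
  let S : F × F × F → Matrix (Fin (k + 2)) (Fin (k + 2)) F := fun a =>
    Matrix.single 0 0 a.1 + Matrix.single 1 1 a.2.1 + (Matrix.single 0 1 a.2.2 + Matrix.single 1 0 a.2.2)
  refine b3_mat hp h2 hA c (Submonoid.subtype _) Subtype.val_injective (fun a => Matrix.fromBlocks 1 (S a) 0 1) (by simp [S])
    (fun a b => ?_) (fun a _ => ⟨⟨_, SymplecticGroup.mem_iff.2 ?_⟩, rfl⟩) fun a g hg e => ?_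
  · simp only [Matrix.fromBlocks_multiply, S, Prod.fst_add, Prod.snd_add, Matrix.single_add]
    congr 1 <;> simp; abel
  · have : (S a).transpose = S a := by simp only [S, Matrix.transpose_add, Matrix.transpose_single]; abel
    change Matrix.fromBlocks _ _ _ _ * _ * (Matrix.fromBlocks _ _ _ _).transpose = _
    simp [Matrix.J, Matrix.fromBlocks_transpose, Matrix.fromBlocks_multiply, this]
  · have := congrArg Subtype.val (Subgroup.mem_center_iff.1 hg ⟨_, SymplecticGroup.J_mem _ _⟩)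
    change _ * g.1 = g.1 * _ at this
    rw [show g.1 = _ from e] at this
    simp only [Matrix.J, Matrix.fromBlocks_multiply, Matrix.fromBlocks_inj] at this
    have z : S a = 0 := by simpa using this.2.2.2
    exact Prod.ext (by simpa [S] using congrFun (congrFun z 0) 0) (Prod.ext (by simpa [S] using congrFun (congrFun z 1) 1)
      (by simpa [S] using congrFun (congrFun z 0) 1))

theorem ka_U4 {k q : ℕ} (hF : Fintype.card F = q ^ 2) : B3 (PSU (k + 4) F q) := by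
  obtain ⟨p, e, hp, hc, he, hq⟩ := Unitary.exists_prime_pow_of_card hF
  have h2 : p ≠ 2 := by rintro rfl; exact Orth.two_ne_zero_of_odd_card ho (CharP.cast_eq_zero F 2)
  have hA (a : F) : p • a = 0 := by rw [nsmul_eq_mul, CharP.cast_eq_zero, zero_mul]
  obtain ⟨σ, hσ⟩ := Unitary.exists_isBar hF
  obtain ⟨δ, δ0, hδ⟩ := hσ.exists_skew
  obtain ⟨x, hx⟩ := hσ.exists_norm_eq (μ := -1) (by simp)
  obtain ⟨u, hu⟩ : ∃ u : Fin (k + 4) → F, u = Matrix.vecCons 1 (Matrix.vecCons x (Matrix.vecCons 0 (Matrix.vecCons 0 0))) := ⟨_, rfl⟩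
  obtain ⟨v, hv⟩ : ∃ v : Fin (k + 4) → F, v = Matrix.vecCons 0 (Matrix.vecCons 0 (Matrix.vecCons 1 (Matrix.vecCons x 0))) := ⟨_, rfl⟩
  let N : F × Unitary.fixedField σ → Matrix (Fin (k + 4)) (Fin (k + 4)) F := fun a =>
    (a.2.1 * δ) • Matrix.vecMulVec u (σ ∘ u) + a.1 • Matrix.vecMulVec u (σ ∘ v) - σ a.1 • Matrix.vecMulVec v (σ ∘ u)
  have uu : (σ ∘ u) ⬝ᵥ u = 0 := by simp [hu, dotProduct, Fin.sum_univ_succ, mul_comm, hx]
  have uv : (σ ∘ u) ⬝ᵥ v = 0 := by simp [hu, hv, dotProduct, Fin.sum_univ_succ]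
  have vu : (σ ∘ v) ⬝ᵥ u = 0 := by simp [hu, hv, dotProduct, Fin.sum_univ_succ]
  have vv : (σ ∘ v) ⬝ᵥ v = 0 := by simp [hv, dotProduct, Fin.sum_univ_succ, mul_comm, hx]
  have NN (a b) : N a * N b = 0 := by simp [N, add_mul, mul_add, sub_mul, mul_sub, Matrix.vecMulVec_mul_vecMulVec, uu, uv, vu, vv]
  have Ns (a) : ((1 + N a).map σ).transpose = 1 - N a := by
    ext i j
    simp only [N, Matrix.vecMulVec_apply, Matrix.one_apply, hσ.invol, hδ, Unitary.mem_fixedField.1 a.2.2, apply_ite σ, eq_comm (a := j),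
      Matrix.transpose_apply, Matrix.map_apply, Matrix.add_apply, Matrix.sub_apply, Matrix.smul_apply, smul_eq_mul, map_add, map_sub,
      map_mul, map_one, map_zero, Function.comp_apply]
    ring
  refine b3_mat hp h2 (fun a => Prod.ext (hA _) (Subtype.ext (hA _))) ?_ ((QT.slM _ F).comp (Cfsg.SU _ F q).subtype)
    (Subtype.val_injective.comp Subtype.val_injective) (fun a => 1 + N a) (by simp [N]) (fun a b => ?_)
    (fun a h => ⟨⟨⟨_, h⟩, hσ.mem_SU_iff.2 ?_⟩, rfl⟩) fun a g hg e => ?_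
  · rw [Nat.card_prod, hσ.card, hσ.card_fixedField, ← pow_succ, hq, ← pow_mul]
    exact Nat.pow_le_pow_right hp.pos (by omega)
  · rw [add_mul, mul_add, mul_add, NN]
    simp only [N, Prod.fst_add, Prod.snd_add, Subfield.coe_add, map_add, add_mul, add_smul, mul_one, one_mul]
    abel
  · change ((1 + N a).map σ).transpose * (1 + N a) = 1
    rw [Ns, sub_mul, mul_add, mul_add, NN]; simp
  · obtain ⟨c, hc⟩ := (Unitary.mem_center_SU hF (by omega)).1 hg
    have E := (show 1 + N a = _ from e.symm).trans hc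
    have x0 : σ x ≠ 0 := fun k => by rw [k, mul_zero] at hx; exact one_ne_zero (neg_eq_zero.1 hx.symm)
    have e1 := congrFun (congrFun E 0) (Fin.succ 0)
    have e2 := congrFun (congrFun E 0) (Fin.succ (Fin.succ 0))
    have u0 : u 0 = 1 := hu ▸ rfl
    have u1 : u (Fin.succ 0) = x := hu ▸ rfl
    have u2 : u (Fin.succ (Fin.succ 0)) = 0 := hu ▸ rfl
    have v0 : v 0 = 0 := hv ▸ rfl
    have v1 : v (Fin.succ 0) = 0 := hv ▸ rfl
    have v2 : v (Fin.succ (Fin.succ 0)) = 1 := hv ▸ rfl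
    simp only [N, Matrix.vecMulVec_apply, Matrix.one_apply_ne (Fin.succ_ne_zero _).symm, Matrix.add_apply, Matrix.sub_apply,
      Matrix.smul_apply, smul_eq_mul, Function.comp_apply, u0, u1, u2, v0, v1, v2, map_zero, map_one, mul_zero, zero_mul, zero_add, add_zero,
      sub_zero, one_mul, mul_one, mul_eq_zero, x0, δ0, or_false] at e1 e2
    exact Prod.ext e2 (Subtype.ext e1)

theorem ka_U3 {q : ℕ} (hF : Fintype.card F = q ^ 2) (h : ¬ q.Prime) : B3 (PSU 3 F q) := by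
  obtain ⟨p, e, hp, hc, he, hq⟩ := Unitary.exists_prime_pow_of_card hF
  have two : (2 : F) ≠ 0 := Orth.two_ne_zero_of_odd_card ho
  have h2 : p ≠ 2 := by rintro rfl; exact two (CharP.cast_eq_zero F 2)
  have hA (a : F) : p • a = 0 := by rw [nsmul_eq_mul, CharP.cast_eq_zero, zero_mul]
  obtain ⟨σ, hσ⟩ := Unitary.exists_isBar hF
  obtain ⟨δ, δ0, hδ⟩ := hσ.exists_skew
  obtain ⟨x, y, hx, hy, xy⟩ := exists_iso hp σ
  obtain ⟨N, hN⟩ : ∃ N : Matrix (Fin 3) (Fin 3) F, N = !![0, -1, y; 1, 0, -x; -y, x, 0] := ⟨_, rfl⟩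
  let M : F → F → Matrix (Fin 3) (Fin 3) F := fun t s => 1 + t • N + s • (N * N)
  have N3 : N * (N * N) = 0 := by
    ext i j; fin_cases i <;> fin_cases j <;> simp [hN, Matrix.mul_apply, Fin.sum_univ_three] <;> grind
  have Ns : (N.map σ).transpose = -N := by ext i j; fin_cases i <;> fin_cases j <;> simp [hN, hx, hy]
  have MM (t s t' s') : M t s * M t' s' = M (t + t') (s + s' + t * t') := by
    simp only [M, add_mul, mul_add, one_mul, mul_one, smul_mul_assoc, mul_smul_comm, mul_assoc, N3, smul_zero, mul_zero, add_zero]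
    module
  have Ms (t s) : ((M t s).map σ).transpose = M (-σ t) (σ s) := by
    have k (c : F) (A : Matrix (Fin 3) (Fin 3) F) : (c • A).map σ = σ c • A.map σ := by ext; simp
    simp only [M, Matrix.map_add _ (map_add σ), k, Matrix.map_mul, Matrix.map_one _ (map_zero σ) (map_one σ), Matrix.transpose_add,
      Matrix.transpose_smul, Matrix.transpose_mul, Matrix.transpose_one, Ns, neg_mul_neg, smul_neg, neg_smul]
  refine b3_mat (A := Unitary.fixedField σ × Unitary.fixedField σ) hp h2 (fun a => Prod.ext (Subtype.ext (hA _)) (Subtype.ext (hA _))) ?_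
    ((QT.slM _ F).comp (Cfsg.SU _ F q).subtype) (Subtype.val_injective.comp Subtype.val_injective)
    (fun a => M (2 * a.1.1) (2 * a.1.1 ^ 2 + a.2.1 * δ)) (by simp [M]) (fun a b => ?_)
    (fun a h => ⟨⟨⟨_, h⟩, hσ.mem_SU_iff.2 ?_⟩, rfl⟩) fun a g hg e => ?_
  · have : e ≠ 1 := fun k => h (by rw [hq, k, pow_one]; exact hp)
    rw [Nat.card_prod, hσ.card_fixedField, hq, ← pow_add]
    exact Nat.pow_le_pow_right hp.pos (by omega)
  · rw [MM]; congr 1 <;> simp <;> ring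
  · change ((M _ _).map σ).transpose * M _ _ = 1
    simp only [Ms, MM, map_mul, map_add, map_pow, map_ofNat, hδ, Unitary.mem_fixedField.1 a.1.2, Unitary.mem_fixedField.1 a.2.2]
    simp only [M]
    rw [neg_add_cancel, zero_smul, add_zero, add_eq_left]
    exact smul_eq_zero_of_left (by ring) _
  · obtain ⟨c, hc⟩ := (Unitary.mem_center_SU hF (by omega)).1 hg
    have E := (show M _ _ = _ from e.symm).trans hc
    generalize hs : 2 * a.1.1 ^ 2 + a.2.1 * δ = s at E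
    have e1 := congrFun (congrFun E 0) 1
    have e2 := congrFun (congrFun E 1) 0
    have e3 := congrFun (congrFun E 0) 2
    have e4 := congrFun (congrFun E 1) 2
    simp [M, hN, Matrix.mul_apply, Fin.sum_univ_three] at e1 e2 e3 e4
    have t0 : a.1.1 = 0 := mul_left_cancel₀ (mul_ne_zero two two) (by linear_combination e2 - e1)
    rw [t0] at e3 e4 hs
    have s0 : s = 0 := by linear_combination s * xy - x * e3 - y * e4
    exact Prod.ext (Subtype.ext t0) (Subtype.ext (mul_right_cancel₀ δ0 (show a.2.1 * δ = 0 * δ by linear_combination hs + s0)))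

theorem b3o_PSU {n q : ℕ} (hF : Fintype.card F = q ^ 2) (h : 4 ≤ n ∨ (n = 3 ∧ ¬ q.Prime)) : B3 (PSU n F q) := by
  rcases h with h | ⟨rfl, h⟩
  · obtain ⟨k, rfl⟩ := Nat.exists_eq_add_of_le' h
    exact ka_U4 ho hF
  · exact ka_U3 ho hF h

theorem b3o_odd {m : ℕ} (h : 3 ≤ m) : B3 (POmega F (quadFormOdd m F)) := by
  obtain ⟨k, rfl⟩ := Nat.exists_eq_add_of_le' h
  have two := Orth.two_ne_zero_of_odd_card ho
  refine (b3_pcom (Orth.nd_qOdd two (k + 3)) (by simp; omega)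
    (b3o_omega two (fun i => Pi.single (.inr (.inl ⟨i, by omega⟩)) 1) (fun i => Pi.single (.inr (.inr ⟨i, by omega⟩)) 1)
      (Pi.single (.inl ()) 1) ?_ ?_ ?_ ?_ ?_ ?_ ?_ ?_)).congr (Orth.pomegaEquiv (Orth.qOdd (k + 3) F)).symm <;>
    (try simp only [Fin.forall_fin_succ]) <;>
    simp [Orth.qOdd_apply, Orth.polar_qOdd, Pi.single_apply]

theorem b3o_plus {m : ℕ} (h : 4 ≤ m) : B3 (POmega F (quadFormPlus m F)) := by
  obtain ⟨k, rfl⟩ := Nat.exists_eq_add_of_le' h
  refine (b3_pcom (Orth.nd_qPlus (k + 4)) (by simp; omega)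
    (b3o_omega (Orth.two_ne_zero_of_odd_card ho) (fun i => Pi.single (.inl ⟨i, by omega⟩) 1) (fun i => Pi.single (.inr ⟨i, by omega⟩) 1)
      (Pi.single (.inl ⟨3, by omega⟩) 1 + Pi.single (.inr ⟨3, by omega⟩) 1)
      ?_ ?_ ?_ ?_ ?_ ?_ ?_ ?_)).congr (Orth.pomegaEquiv (Orth.qPlus (k + 4) F)).symm <;>
    (try simp only [Fin.forall_fin_succ]) <;>
    simp [Orth.qPlus_apply, Orth.polar_qPlus, Pi.single_apply]

theorem b3o_minus {m : ℕ} (h : 4 ≤ m) {a b : F} (hab : ∀ z₁ z₂ : F, z₁ ^ 2 + a * z₁ * z₂ + b * z₂ ^ 2 = 0 → z₁ = 0 ∧ z₂ = 0) :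
    B3 (POmega F (quadFormMinus (m - 1) F a b)) := by
  obtain ⟨k, rfl⟩ := Nat.exists_eq_add_of_le' h
  change B3 (POmega F (quadFormMinus (k + 3) F a b))
  refine (b3_pcom (Orth.nd_qMinus (k + 3) hab) (by simp; omega)
    (b3o_omega (Orth.two_ne_zero_of_odd_card ho) (fun i => Pi.single (.inl (.inl ⟨i, by omega⟩)) 1)
      (fun i => Pi.single (.inl (.inr ⟨i, by omega⟩)) 1) (Pi.single (.inr 0) 1)
      ?_ ?_ ?_ ?_ ?_ ?_ ?_ ?_)).congr (Orth.pomegaEquiv (Orth.qMinus (k + 3) F a b)).symm <;>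
    (try simp only [Fin.forall_fin_succ]) <;>
    simp [Orth.qMinus_apply, Orth.polar_qMinus, Pi.single_apply]

omit ho in
theorem ka_G2 {r s : Fin 12} (h : Lie.chevG2.commTerms r s = []) (h1 : s ≠ r) (h2 : s ≠ r.rev) (u t : F) :
    Commute ((Twisted.CG2 F).x s u) ((Twisted.CG2 F).x r t) := by
  have h4 : (s : ℕ) ≠ Lie.chevG2.neg r := fun e => h2 (Twisted.neg_G2 r ▸ Fin.ext e)
  simpa [Twisted.x_G2, Commute, SemiconjBy] using Twisted.xN_comm Chev.checkedG2 ⟨r.2, s.2, Fin.val_ne_of_ne h1, h4, h⟩ t u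

theorem b3o_G2 : B3 (Lie.chevG2.group F) := by
  obtain ⟨p, hp, h2, -, hA, c⟩ := ka_three ho
  exact (b3_rt Twisted.faithful_G2 (K := ⊤) hp h2 hA c (r := 9) (s := 10) (u := 11) (by decide)
    (fun k hk => (Twisted.isPos_G2 k).1 (by revert k; decide)) (ka_G2 (by decide +kernel) (by decide) (by decide))
    (ka_G2 (by decide +kernel) (by decide) (by decide)) (ka_G2 (by decide +kernel) (by decide) (by decide)) (AddMonoidHom.fst _ _)
    ((AddMonoidHom.fst _ _).comp (AddMonoidHom.snd _ _)) ((AddMonoidHom.snd _ _).comp (AddMonoidHom.snd _ _)) (fun _ => trivial)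
    fun _ h1 h2 h3 => Prod.ext h1 (Prod.ext h2 h3)).congr Subgroup.topEquiv

theorem b3o_F4 : B3 (Lie.chevF4.group F) :=
  (bp3_ln Twisted.faithful_F4 Twisted.adjoint_F4.hMul ![25, 30, 41] (by decide +kernel) (by decide +kernel)).b3

theorem b3o_E6 : B3 (Lie.chevE6.group F) :=
  (bp3_simple Twisted.faithful_E6 Twisted.adjoint_E6.hMul ![0, 1, 5] (by
    change ∀ i j : Fin 3, i ≠ j → Chev.AN Lie.chevE6 ((![0, 1, 5] : Fin 3 → Fin 6) i) ((![0, 1, 5] : Fin 3 → Fin 6) j) = 0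
    decide +kernel)).b3

theorem b3o_E7 : B3 (Lie.chevE7.group F) :=
  (bp3_simple (Twisted.sysG_faithful Chev.checkedE7 F) (Twisted.sysG_adjoint _ _).hMul (![0, 1, 4] : Fin 3 → Fin 7) (by
    change ∀ i j : Fin 3, i ≠ j → Chev.AN Lie.chevE7 ((![0, 1, 4] : Fin 3 → Fin 7) i) ((![0, 1, 4] : Fin 3 → Fin 7) j) = 0
    decide +kernel)).b3

theorem b3o_E8 : B3 (Lie.chevE8.group F) :=
  (bp3_simple (Twisted.sysG_faithful Chev.checkedE8 F) (Twisted.sysG_adjoint _ _).hMul (![0, 1, 4] : Fin 3 → Fin 8) (by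
    change ∀ i j : Fin 3, i ≠ j → Chev.AN Lie.chevE8 ((![0, 1, 4] : Fin 3 → Fin 8) i) ((![0, 1, 4] : Fin 3 → Fin 8) j) = 0
    decide +kernel)).b3

theorem b3o_2E6 {q : ℕ} (h : Fintype.card F = q ^ 2) : B3 (Lie.twistedE6 F q) := by
  obtain ⟨p, e, hp, h2, hc, he, hq, hA⟩ := ka_char ho
  obtain ⟨σ, hσ⟩ := Unitary.exists_isBar h
  obtain ⟨f, -, rfl⟩ := (Nat.dvd_prime_pow hp).1 (show q ∣ p ^ e by rw [← hq, h]; exact dvd_pow_self q two_ne_zero)
  have k : ∀ {i j : Fin 6}, i ≠ j → Chev.AN Lie.chevE6 i j = 0 → ∀ a b,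
      Commute ((Twisted.CE6 F).x (Twisted.RE6.simple i) a) ((Twisted.CE6 F).x (Twisted.RE6.simple j) b) :=
    fun h h' _ _ => Twisted.commute_of_orth h h' (Twisted.x_mem_Lv _ _) (Twisted.x_mem_Lv _ _)
  refine (b3_rt (A := F × Unitary.fixedField σ) Twisted.faithful_E6 (K := Twisted.KE6 F (p ^ f)) hp h2
    (fun a => Prod.ext (hA _) (Subtype.ext (hA _))) ?_ (r := Twisted.RE6.simple 1) (s := Twisted.RE6.simple 0)
    (u := Twisted.RE6.simple 5) (by simp only [Twisted.RE6_simple]; decide) (by simp [Chev.RootSys.isPos_simple])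
    (k (by decide) (by decide +kernel)) (k (by decide) (by decide +kernel)) (k (by decide) (by decide +kernel))
    ((Subfield.subtype _).toAddMonoidHom.comp (AddMonoidHom.snd _ _)) (AddMonoidHom.fst _ _)
    (σ.toAddMonoidHom.comp (AddMonoidHom.fst _ _)) (fun a => ?_) fun a h1 h2 _ => Prod.ext h2 (Subtype.ext h1)).congr
    (Twisted.equivOfMap (Subgroup.subtype_injective _) Twisted.map_KE6).symm
  · have := hσ.two_le
    have : f ≠ 0 := by rintro rfl; simp at this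
    rw [Nat.card_prod, hσ.card, hσ.card_fixedField, ← pow_succ, ← pow_mul]
    exact Nat.pow_le_pow_right hp.pos (by omega)
  · rw [Twisted.xp_E6, Twisted.xp_E6, Twisted.xp_E6]
    exact mul_mem (Twisted.single_mem_KE6 (by decide) ((hσ.eq _).symm.trans a.2.2))
      (by simpa [hσ.eq] using Twisted.pair_mem_KE6 (q := p ^ f) (r := Lie.e6p1) (s := Lie.e6p6) (by decide) a.1)

theorem b3o_3D4 {q : ℕ} (h : Fintype.card F = q ^ 3) : B3 (Lie.twistedD4 F q) := by
  obtain ⟨p, e, hp, h2, hc, he, hq, hA⟩ := ka_char ho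
  haveI := Fact.mk hp
  obtain ⟨f, -, rfl⟩ := (Nat.dvd_prime_pow hp).1 (show q ∣ p ^ e by rw [← hq, h]; exact dvd_pow_self q three_ne_zero)
  have k : ∀ {i j : Fin 4}, i ≠ j → Chev.AN Lie.chevD4 i j = 0 → ∀ a b,
      Commute ((Twisted.CD4 F).x (Twisted.RD4.simple i) a) ((Twisted.CD4 F).x (Twisted.RD4.simple j) b) :=
    fun h h' _ _ => Twisted.commute_of_orth h h' (Twisted.x_mem_Lv _ _) (Twisted.x_mem_Lv _ _)
  refine (b3_rt Twisted.faithful_D4 (K := Twisted.KD4 F (p ^ f)) hp h2 hA ?_ (r := Twisted.RD4.simple 0) (s := Twisted.RD4.simple 2)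
    (u := Twisted.RD4.simple 3) (by decide +kernel) (by simp [Chev.RootSys.isPos_simple])
    (k (by decide) (by decide +kernel)) (k (by decide) (by decide +kernel)) (k (by decide) (by decide +kernel))
    (AddMonoidHom.id F) (iterateFrobenius F p f).toAddMonoidHom ((iterateFrobenius F p f).comp (iterateFrobenius F p f)).toAddMonoidHom
    (fun a => ?_) fun a h1 _ _ => h1).congr (Twisted.equivOfMap (Subgroup.subtype_injective _) Twisted.map_KD4).symm
  · have := Fintype.one_lt_card (α := F)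
    have : f ≠ 0 := by rintro rfl; simp [h] at this
    rw [Nat.card_eq_fintype_card, h, ← pow_mul]
    exact Nat.pow_le_pow_right hp.pos (by omega)
  · rw [Twisted.xp_D4, Twisted.xp_D4, Twisted.xp_D4]
    exact Twisted.triple_mem_KD4 (by decide) a

omit ho in
theorem b3o_Ree {m : ℕ} (hm : 1 ≤ m) (h : Fintype.card F = 3 ^ (2 * m + 1)) : B3 (Lie.twistedG2 F (3 ^ m)) := by
  haveI : CharP F 3 := charP_of_card_eq_prime_pow h
  refine (b3_rt Twisted.faithful_G2 (K := Twisted.KG2 F (3 ^ m)) Nat.prime_three (by decide)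
    (fun a : F => by rw [nsmul_eq_mul, CharP.cast_eq_zero, zero_mul]) ?_ (r := 9) (s := 10) (u := 11) (by decide)
    (fun k hk => (Twisted.isPos_G2 k).1 (by revert k; decide)) (ka_G2 (by decide +kernel) (by decide) (by decide))
    (ka_G2 (by decide +kernel) (by decide) (by decide)) (ka_G2 (by decide +kernel) (by decide) (by decide))
    (iterateFrobenius F 3 m).toAddMonoidHom 0 (AddMonoidHom.id F) (fun a => ?_) fun a _ _ h => h).congr
    (Twisted.equivOfMap (Subgroup.subtype_injective _) Twisted.map_KG2).symm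
  · rw [Nat.card_eq_fintype_card, h]
    exact Nat.pow_le_pow_right (by decide) (by omega)
  · simpa [Lie.reeWordU, Lie.g2aab, Lie.g2aaabb, Twisted.x_G2, iterateFrobenius_def, Twisted.KG2] using
      Twisted.wd_mem_gen Chev.checkedG2 (Ws := Lie.g2Words F (3 ^ m)) ⟨0, 0, a, .inl rfl⟩


end Cfsg.Lib.UQ
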